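import Mathlib
import Cfsg.Prelude.Def_Classical
import Cfsg.Agent.S0243
import Cfsg.Agent.S0280

/-!
# Nonabelian `p`-subgroups of `PSL_n(q)`, `p ∣ (n, q - 1)`, and of `PSU_n(q)`, `p ∣ (n, q + 1)` (helper601)

For an odd prime `p` the simple group has a nonabelian `p`-subgroup, or `p ^ 3` does not divide its order.
-/

set_option autoImplicit false
set_option linter.unusedSectionVars false

namespace Cfsg.Agent.H601.PslPsuRow

open Matrix Equiv Equiv.Perm

section core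

variable {G : Type*} [Group G] {p : ℕ} [hp : Fact p.Prime]

theorem nonab_quot (N : Subgroup G) (hN : IsPGroup p N) {c : G} (hc : c ^ p = 1)
    (hn : ∀ x ∈ N, c * x * c⁻¹ ∈ N) (hn' : ∀ x ∈ N, c⁻¹ * x * c ∈ N) {d : G} (hd : d ∈ N)
    (hcd : c * d * c⁻¹ * d⁻¹ ∉ Subgroup.center G) :
    ∃ P : Subgroup (G ⧸ Subgroup.center G), IsPGroup p P ∧ ∃ a ∈ P, ∃ b ∈ P, a * b ≠ b * a := by
  have h1 : Subgroup.zpowers c ≤ Subgroup.normalizer (N : Set G) := by
    rw [Subgroup.zpowers_le, Subgroup.mem_normalizer_iff]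
    intro x
    refine ⟨fun h => hn x h, fun h => ?_⟩
    have h2 := hn' _ h
    have e : c⁻¹ * (c * x * c⁻¹) * c = x := by group
    rwa [e] at h2
  have h2 : IsPGroup p (Subgroup.zpowers c) := by
    intro x
    obtain ⟨k, hk⟩ := Subgroup.mem_zpowers_iff.1 x.2
    refine ⟨1, Subtype.ext ?_⟩
    rw [Subgroup.coe_pow, Subgroup.coe_one, ← hk, pow_one, ← zpow_natCast, ← _root_.zpow_mul, mul_comm,
      _root_.zpow_mul, zpow_natCast, hc, _root_.one_zpow]
  have h3 : IsPGroup p ↥(Subgroup.zpowers c ⊔ N) := h2.to_sup_of_normal_right' hN h1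
  refine ⟨(Subgroup.zpowers c ⊔ N).map (QuotientGroup.mk' (Subgroup.center G)), h3.map _,
    _, ⟨c, Subgroup.mem_sup_left (Subgroup.mem_zpowers c), rfl⟩, _, ⟨d, Subgroup.mem_sup_right hd, rfl⟩, ?_⟩
  intro h
  apply hcd
  rw [← QuotientGroup.eq_one_iff]
  have h4 : (QuotientGroup.mk' (Subgroup.center G)) (c * d * c⁻¹ * d⁻¹) = 1 := by
    rw [map_mul, map_mul, map_mul, map_inv, map_inv, h]
    group
  exact h4

theorem permMatrix_pow {F : Type*} [Field F] {n : ℕ} (σ : Perm (Fin n)) (k : ℕ) :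
    (σ.permMatrix F) ^ k = (σ ^ k).permMatrix F := by
  induction k with
  | zero => rw [pow_zero, pow_zero, permMatrix_one]
  | succ k ih => rw [pow_succ', ih, pow_succ, permMatrix_mul]

theorem permMatrix_conj {F : Type*} [Field F] {n : ℕ} (σ : Perm (Fin n)) (t : Fin n → F) :
    σ.permMatrix F * diagonal t = diagonal (fun i => t (σ i)) * σ.permMatrix F := by
  ext i j
  rw [mul_diagonal, diagonal_mul]
  simp only [Equiv.Perm.permMatrix, PEquiv.toMatrix_apply, Equiv.toPEquiv_apply, Option.mem_def, Option.some.injEq]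
  split_ifs with h
  · rw [h]; ring
  · ring

theorem mono_core {F : Type*} [Field F] {n r m : ℕ} (φ : G →* SpecialLinearGroup (Fin n) F)
    (hφ : Function.Injective φ)
    (hdiag : ∀ t : Fin n → Fˣ, (∀ i, t i ^ r = 1) → ∏ i, t i = 1 →
      ∃ g : G, (φ g).1 = diagonal (fun i => (t i : F)))
    {σ : Perm (Fin n)} {c : G} (hc : (φ c).1 = σ.permMatrix F) (hσ : σ ^ p = 1)
    {t : Fin n → Fˣ} (ht : ∀ i, t i ^ r = 1) (htm : ∀ i, t i ^ p ^ m = 1) (htp : ∏ i, t i = 1)
    {i : Fin n} (hi : t (σ (σ i)) * t i ≠ t (σ i) * t (σ i)) :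
    ∃ P : Subgroup (G ⧸ Subgroup.center G), IsPGroup p P ∧ ∃ a ∈ P, ∃ b ∈ P, a * b ≠ b * a := by
  have inj : ∀ x y : G, (φ x).1 = (φ y).1 → x = y := fun x y h => hφ (Subtype.ext h)
  have mulφ : ∀ x y : G, (φ (x * y)).1 = (φ x).1 * (φ y).1 := fun x y => by
    rw [map_mul]; rfl
  have powφ : ∀ (x : G) (k : ℕ), (φ (x ^ k)).1 = (φ x).1 ^ k := fun x k => by
    induction k with
    | zero => rw [pow_zero, pow_zero, map_one]; rfl
    | succ k ih => rw [pow_succ, pow_succ, mulφ, ih]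
  have hdm : ∀ s s' : Fin n → Fˣ, diagonal (fun i => (s i : F)) * diagonal (fun i => (s' i : F)) =
      diagonal (fun i => ((s i * s' i : Fˣ) : F)) := fun s s' => by
    rw [diagonal_mul_diagonal]; rfl
  let N : Subgroup G :=
    { carrier := {g | ∃ s : Fin n → Fˣ, (∀ i, s i ^ p ^ m = 1) ∧ (φ g).1 = diagonal (fun i => (s i : F))}
      one_mem' := ⟨1, fun i => one_pow _, by
        rw [map_one]
        show (1 : Matrix (Fin n) (Fin n) F) = _
        rw [← diagonal_one]; rfl⟩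
      mul_mem' := by
        rintro a b ⟨s, hs, ha⟩ ⟨s', hs', hb⟩
        exact ⟨s * s', fun i => by rw [Pi.mul_apply, mul_pow, hs, hs', one_mul], by
          rw [mulφ, ha, hb, hdm]; rfl⟩
      inv_mem' := by
        rintro a ⟨s, hs, ha⟩
        refine ⟨s⁻¹, fun i => by rw [Pi.inv_apply, inv_pow, hs, inv_one], ?_⟩
        have h1 : (φ a⁻¹).1 * (φ a).1 = 1 := by rw [← mulφ, inv_mul_cancel, map_one]; rfl
        have h2 : diagonal (fun i => (((s⁻¹) i : Fˣ) : F)) * (φ a).1 = 1 := by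
          rw [ha, hdm, ← diagonal_one]
          congr 1
          funext i
          rw [Pi.inv_apply, inv_mul_cancel, Units.val_one]
        have h3 : (φ a).1 * (φ a⁻¹).1 = 1 := by rw [← mulφ, mul_inv_cancel, map_one]; rfl
        calc (φ a⁻¹).1 = 1 * (φ a⁻¹).1 := (one_mul _).symm
          _ = diagonal (fun i => (((s⁻¹) i : Fˣ) : F)) * (φ a).1 * (φ a⁻¹).1 := by rw [h2]
          _ = _ := by rw [mul_assoc, h3, mul_one] }
  have memN : ∀ g : G, g ∈ N ↔ ∃ s : Fin n → Fˣ, (∀ i, s i ^ p ^ m = 1) ∧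
      (φ g).1 = diagonal (fun i => (s i : F)) := fun g => Iff.rfl
  have hN : IsPGroup p N := by
    rintro ⟨g, s, hs, hg⟩
    refine ⟨m, Subtype.ext (inj _ _ ?_)⟩
    show (φ (g ^ p ^ m)).1 = (φ 1).1
    rw [powφ, hg, diagonal_pow, map_one]
    show _ = (1 : Matrix (Fin n) (Fin n) F)
    rw [← diagonal_one]
    congr 1
    funext i
    rw [Pi.pow_apply, ← Units.val_pow_eq_pow_val, hs, Units.val_one]
  have hcc : c ^ p = 1 := by
    apply inj
    rw [powφ, hc, permMatrix_pow, hσ, permMatrix_one, map_one]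
    rfl
  have conj : ∀ (x : G) (s : Fin n → Fˣ), (φ x).1 = diagonal (fun i => (s i : F)) →
      (φ (c * x * c⁻¹)).1 = diagonal (fun i => (s (σ i) : F)) := by
    intro x s hx
    rw [mulφ, mulφ, hc, hx, permMatrix_conj, ← hc, mul_assoc, ← mulφ, mul_inv_cancel, map_one]
    exact mul_one _
  have conj' : ∀ (x : G) (s : Fin n → Fˣ), (φ x).1 = diagonal (fun i => (s i : F)) →
      (φ (c⁻¹ * x * c)).1 = diagonal (fun i => (s (σ.symm i) : F)) := by
    intro x s hx
    have h1 : c * (c⁻¹ * x * c) = x * c := by group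
    have h2 : (φ c).1 * (φ (c⁻¹ * x * c)).1 = (φ c).1 * diagonal (fun i => (s (σ.symm i) : F)) := by
      rw [← mulφ, h1, mulφ, hc, permMatrix_conj, hx]
      congr 2
      funext i
      rw [Equiv.symm_apply_apply]
    have h3 : (φ c⁻¹).1 * (φ c).1 = 1 := by rw [← mulφ, inv_mul_cancel, map_one]; rfl
    calc (φ (c⁻¹ * x * c)).1 = (φ c⁻¹).1 * (φ c).1 * (φ (c⁻¹ * x * c)).1 := by rw [h3, one_mul]
      _ = (φ c⁻¹).1 * (φ c).1 * diagonal (fun i => (s (σ.symm i) : F)) := by rw [mul_assoc, h2, mul_assoc]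
      _ = _ := by rw [h3, one_mul]
  obtain ⟨d, hd⟩ := hdiag t ht htp
  refine nonab_quot N hN hcc ?_ ?_ (d := d) ⟨t, htm, hd⟩ ?_
  · rintro x ⟨s, hs, hx⟩
    exact ⟨fun i => s (σ i), fun i => hs _, conj x s hx⟩
  · rintro x ⟨s, hs, hx⟩
    exact ⟨fun i => s (σ.symm i), fun i => hs _, conj' x s hx⟩
  · intro hcen
    obtain ⟨y, hy⟩ : ∃ y, y = c * d * c⁻¹ * d⁻¹ := ⟨_, rfl⟩
    rw [← hy] at hcen
    have hyd : y * d = c * d * c⁻¹ := by rw [hy]; group
    have hcy : c * y * c⁻¹ = y := by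
      rw [Subgroup.mem_center_iff.1 hcen c, mul_inv_cancel_right]
    -- the matrix of `y` is diagonal
    obtain ⟨s, hs, hys⟩ : y ∈ N := by
      rw [hy]
      exact N.mul_mem ⟨fun i => t (σ i), fun i => htm _, conj d t hd⟩ (N.inv_mem ⟨t, htm, hd⟩)
    have e1 : ∀ i, s i * t i = t (σ i) := by
      intro i
      have h1 := conj d t hd
      rw [← hyd, mulφ, hys, hd, hdm] at h1
      have h2 := congrFun (diagonal_injective h1) i
      exact Units.ext h2
    have e2 : ∀ i, s (σ i) = s i := by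
      intro i
      have h1 := conj y s hys
      rw [hcy, hys] at h1
      exact Units.ext (congrFun (diagonal_injective h1) i).symm
    apply hi
    rw [← e1 (σ i), e2 i]
    calc s i * t (σ i) * t i = (s i * t i) * t (σ i) := by rw [mul_right_comm]
      _ = t (σ i) * t (σ i) := by rw [e1]

end core

theorem exists_cycle {p n : ℕ} (hp : p.Prime) (hn : p ≤ n) :
    ∃ c : Perm (Fin n), c.IsCycle ∧ c.support.card = p := by
  obtain ⟨s, hs⟩ : ∃ s : Finset (Fin n), s.card = p := Finset.exists_subset_card_eq (s := Finset.univ)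
    (by rw [Finset.card_univ, Fintype.card_fin]; exact hn) |>.imp fun s hs => hs.2
  obtain ⟨c, hc, hcs⟩ := Finset.exists_cycleOn s
  have hnt : s.Nontrivial := Finset.one_lt_card_iff_nontrivial.1 (by rw [hs]; exact hp.one_lt)
  refine ⟨c, ?_, ?_⟩
  · rw [isCycle_iff_exists_isCycleOn]
    exact ⟨s, by exact_mod_cast hnt, hc, fun x hx => hcs (mem_support.2 hx)⟩
  · rw [← hs]
    congr 1
    refine le_antisymm hcs fun x hx => ?_
    rw [mem_support]
    exact hc.apply_ne (by exact_mod_cast hnt) (by exact_mod_cast hx)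

theorem exists_orderOf {F : Type*} [Field F] [Fintype F] {k : ℕ} (hk : k ∣ Fintype.card F - 1) :
    ∃ z : Fˣ, orderOf z = k := by
  obtain ⟨g, hg⟩ := IsCyclic.exists_ofOrder_eq_natCard (α := Fˣ)
  have h1 : Nat.card Fˣ = Fintype.card F - 1 := by
    rw [Nat.card_units, Nat.card_eq_fintype_card]
  obtain ⟨l, hl⟩ := hk
  have h2 : 0 < Fintype.card F - 1 := by
    have := Fintype.one_lt_card (α := F)
    omega
  have hl0 : l ≠ 0 := by rintro rfl; omega
  refine ⟨g ^ l, ?_⟩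
  rw [orderOf_pow' g hl0, hg, h1, hl, Nat.gcd_eq_right (Dvd.intro_left k rfl), Nat.mul_div_cancel _ (by omega)]

theorem nonab_row {G : Type*} [Group G] {F : Type*} [Field F] [Fintype F] {n p r : ℕ} [hp : Fact p.Prime]
    (hp2 : p ≠ 2) (hn : p ≤ n) (hr : r ∣ Fintype.card F - 1) (hpr : p ∣ r)
    (φ : G →* SpecialLinearGroup (Fin n) F) (hφ : Function.Injective φ)
    (hdiag : ∀ t : Fin n → Fˣ, (∀ i, t i ^ r = 1) → ∏ i, t i = 1 →
      ∃ g : G, (φ g).1 = diagonal (fun i => (t i : F)))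
    (hperm : ∀ σ : Perm (Fin n), sign σ = 1 → ∃ g : G, (φ g).1 = σ.permMatrix F)
    (h9 : n = 3 → 9 ∣ r) :
    ∃ P : Subgroup (G ⧸ Subgroup.center G), IsPGroup p P ∧ ∃ a ∈ P, ∃ b ∈ P, a * b ≠ b * a := by
  have hp3 : 3 ≤ p := by
    have := hp.out.two_le
    omega
  obtain ⟨σ, hσc, hσp⟩ := exists_cycle hp.out hn
  have hodd : Odd p := hp.out.odd_of_ne_two hp2
  have hsign : sign σ = 1 := by
    rw [hσc.sign, hσp, hodd.neg_one_pow, neg_neg]
  have hσ : σ ^ p = 1 := by rw [← hσp, ← hσc.orderOf]; exact pow_orderOf_eq_one σ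
  obtain ⟨c, hc⟩ := hperm σ hsign
  obtain ⟨i, hi, -⟩ := hσc
  have hi2 : σ (σ i) ≠ i := by
    intro h
    have h1 : (σ ^ 2) i = i := by rw [pow_two]; exact h
    have h2 : ∀ k : ℕ, (σ ^ (2 * k)) i = i := by
      intro k
      rw [pow_mul]
      induction k with
      | zero => rfl
      | succ k ih => rw [pow_succ, Perm.mul_apply, h1, ih]
    obtain ⟨k, hk⟩ := hodd
    apply hi
    have h3 : (σ ^ p) i = i := by rw [hσ]; rfl
    rw [hk, pow_succ', Perm.mul_apply, h2] at h3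
    exact h3
  -- `j = σ⁻¹ i`
  obtain ⟨j, hj⟩ := σ.surjective i
  have hji : j ≠ i := fun h => hi (by rw [← h]; rw [h] at hj; rw [h]; exact hj)
  have hjs : σ i ≠ j := fun h => hi2 (by rw [h, hj])
  -- the diagonal element
  have key : ∀ (z : Fˣ) (l : Fin n), l ≠ i → z ^ r = 1 → (∃ m, z ^ p ^ m = 1) →
      (∀ t : Fin n → Fˣ, t i = z → t l = z⁻¹ → (∀ x, x ≠ i → x ≠ l → t x = 1) →
        t (σ (σ j)) * t j ≠ t (σ j) * t (σ j)) →
      ∃ P : Subgroup (G ⧸ Subgroup.center G), IsPGroup p P ∧ ∃ a ∈ P, ∃ b ∈ P, a * b ≠ b * a := by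
    intro z l hl hz ⟨m, hm⟩ h
    let t : Fin n → Fˣ := fun x => if x = i then z else if x = l then z⁻¹ else 1
    have t1 : t i = z := if_pos rfl
    have t2 : t l = z⁻¹ := by
      show (if l = i then z else if l = l then z⁻¹ else 1) = z⁻¹
      rw [if_neg hl, if_pos rfl]
    have t3 : ∀ x, x ≠ i → x ≠ l → t x = 1 := by
      intro x h1 h2
      show (if x = i then z else if x = l then z⁻¹ else 1) = 1
      rw [if_neg h1, if_neg h2]
    have tall : ∀ k : ℕ, z ^ k = 1 → ∀ x, t x ^ k = 1 := by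
      intro k hk x
      by_cases h1 : x = i
      · rw [h1, t1, hk]
      by_cases h2 : x = l
      · rw [h2, t2, inv_pow, hk, inv_one]
      rw [t3 x h1 h2, one_pow]
    have tprod : ∏ x, t x = 1 := by
      rw [← Finset.mul_prod_erase Finset.univ t (Finset.mem_univ i),
        ← Finset.mul_prod_erase (Finset.univ.erase i) t (Finset.mem_erase.2 ⟨hl, Finset.mem_univ l⟩),
        Finset.prod_eq_one, t1, t2, mul_one, mul_inv_cancel]
      intro x hx
      rw [Finset.mem_erase, Finset.mem_erase] at hx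
      exact t3 x hx.2.1 hx.1
    exact mono_core φ hφ hdiag hc hσ (tall r hz) (m := m) (tall _ hm) tprod (i := j) (h t t1 t2 t3)
  by_cases hn3 : n = 3
  · -- `n = 3`
    have hp' : p = 3 := by omega
    obtain ⟨z, hz⟩ := exists_orderOf (F := F) ((h9 hn3).trans hr)
    have hzr : z ^ r = 1 := orderOf_dvd_iff_pow_eq_one.1 (hz ▸ h9 hn3)
    refine key z (σ i) hi hzr ⟨2, ?_⟩ ?_
    · rw [hp']
      exact orderOf_dvd_iff_pow_eq_one.1 (by rw [hz]; norm_num)
    · intro t t1 t2 t3 h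
      rw [hj, t2, t1, t3 j hji (Ne.symm hjs), mul_one] at h
      have h1 : z ^ 3 = 1 := by
        rw [pow_succ, pow_two, ← h, inv_mul_cancel]
      have h2 := orderOf_dvd_iff_pow_eq_one.2 h1
      rw [hz] at h2
      omega
  · have h4 : 4 ≤ n := by omega
    obtain ⟨z, hz⟩ := exists_orderOf (F := F) (hpr.trans hr)
    have hzr : z ^ r = 1 := orderOf_dvd_iff_pow_eq_one.1 (hz ▸ hpr)
    obtain ⟨l, h1, h2, h3⟩ : ∃ l : Fin n, l ≠ i ∧ l ≠ σ i ∧ l ≠ j := by
      by_contra hcon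
      push Not at hcon
      have h1 : (Finset.univ : Finset (Fin n)) ⊆ {i, σ i, j} := by
        intro l _
        by_cases a1 : l = i
        · simp [a1]
        by_cases a2 : l = σ i
        · simp [a2]
        simp [hcon l a1 a2]
      have h2 := (Finset.card_le_card h1).trans Finset.card_le_three
      rw [Finset.card_univ, Fintype.card_fin] at h2
      omega
    refine key z l h1 hzr ⟨1, ?_⟩ ?_
    · rw [pow_one]
      exact orderOf_dvd_iff_pow_eq_one.1 (by rw [hz])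
    · intro t t1 t2 t3 h
      rw [hj, t3 (σ i) hi (Ne.symm h2), t1, t3 j hji (Ne.symm h3), mul_one] at h
      have h5 : z ^ 2 = 1 := by rw [pow_two]; exact h.symm
      have h6 := orderOf_dvd_iff_pow_eq_one.2 h5
      rw [hz] at h6
      have h7 := Nat.le_of_dvd (by norm_num) h6
      omega

/-- **`PSL_n(q)`.** -/
theorem psl_row {F : Type*} [Field F] [Fintype F] {n p : ℕ} [hp : Fact p.Prime] (hp2 : p ≠ 2) (hn0 : 0 < n)
    (hn : p ∣ n) (hq : p ∣ Fintype.card F - 1) :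
    (∃ P : Subgroup (Matrix.ProjectiveSpecialLinearGroup (Fin n) F), IsPGroup p P ∧
      ∃ a ∈ P, ∃ b ∈ P, a * b ≠ b * a) ∨
    ¬ p ^ 3 ∣ Nat.card (Matrix.ProjectiveSpecialLinearGroup (Fin n) F) := by
  by_cases h9 : n = 3 → 9 ∣ Fintype.card F - 1
  · left
    refine nonab_row (G := SpecialLinearGroup (Fin n) F) (r := Fintype.card F - 1) hp2 (Nat.le_of_dvd hn0 hn)
      dvd_rfl hq (MonoidHom.id _) Function.injective_id ?_ ?_ h9
    · intro t _ htp
      refine ⟨⟨diagonal (fun i => (t i : F)), ?_⟩, rfl⟩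
      rw [det_diagonal, ← Units.coe_prod, htp, Units.val_one]
    · intro σ hσ
      exact ⟨⟨σ.permMatrix F, by rw [det_permutation, hσ]; simp⟩, rfl⟩
  · right
    push Not at h9
    obtain ⟨hn3, h9⟩ := h9
    have hp3 : p = 3 := by
      have h1 := hp.out.two_le
      have h2 : p ∣ 3 := hn3 ▸ hn
      exact (Nat.prime_dvd_prime_iff_eq hp.out Nat.prime_three).1 h2
    subst hp3 hn3
    intro hd
    have h := Cfsg.Agent.S0243.result (F := F) rfl 3 (by norm_num)
    obtain ⟨a, ha⟩ := hq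
    have hq1 := Fintype.one_lt_card (α := F)
    have ha3 : ¬ 3 ∣ a := by
      intro h3
      apply h9
      rw [ha, show (9 : ℕ) = 3 * 3 from rfl]
      exact Nat.mul_dvd_mul_left 3 h3
    have hqa : Fintype.card F = 3 * a + 1 := by omega
    have hg : Nat.gcd 3 (Fintype.card F - 1) = 3 := by
      rw [ha]; exact Nat.gcd_eq_left (Dvd.intro _ rfl)
    rw [hg, ha, hqa, Fin.prod_univ_three] at h
    obtain ⟨b, hb⟩ := hd
    rw [hb] at h
    simp only [Fin.val_zero, Fin.val_one, Fin.val_two, pow_zero, pow_one] at h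
    have e1 : (3 * a + 1) ^ 3 - 1 = 9 * (a * (3 * a ^ 2 + 3 * a + 1)) := by
      have : (3 * a + 1) ^ 3 = 9 * (a * (3 * a ^ 2 + 3 * a + 1)) + 1 := by ring
      omega
    have e2 : (3 * a + 1) ^ 3 - (3 * a + 1) = 3 * ((3 * a + 1) * a * (3 * a + 2)) := by
      have : (3 * a + 1) ^ 3 = 3 * ((3 * a + 1) * a * (3 * a + 2)) + (3 * a + 1) := by ring
      omega
    have e3 : (3 * a + 1) ^ 3 - (3 * a + 1) ^ 2 = 3 * ((3 * a + 1) ^ 2 * a) := by
      have : (3 * a + 1) ^ 3 = 3 * ((3 * a + 1) ^ 2 * a) + (3 * a + 1) ^ 2 := by ring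
      omega
    rw [e1, e2, e3] at h
    have ha0 : 0 < a := by omega
    have h2 : 81 * (3 * (a * b)) = 81 * ((a * (3 * a ^ 2 + 3 * a + 1)) *
        ((3 * a + 1) * a * (3 * a + 2)) * ((3 * a + 1) ^ 2 * a)) := by
      rw [← mul_left_inj' (c := 1) one_ne_zero]
      linear_combination h
    have h3 := Nat.eq_of_mul_eq_mul_left (by norm_num : 0 < 81) h2
    have h4 : 3 ∣ (a * (3 * a ^ 2 + 3 * a + 1)) * ((3 * a + 1) * a * (3 * a + 2)) * ((3 * a + 1) ^ 2 * a) :=
      Dvd.intro _ h3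
    have n1 : ¬ 3 ∣ 3 * a + 1 := by omega
    have n2 : ¬ 3 ∣ 3 * a + 2 := by omega
    have n3 : ¬ 3 ∣ 3 * a ^ 2 + 3 * a + 1 := by omega
    simp only [Nat.Prime.dvd_mul Nat.prime_three] at h4
    have n4 : ¬ 3 ∣ (3 * a + 1) ^ 2 := fun h => n1 (Nat.prime_three.dvd_of_dvd_pow h)
    tauto

/-- **`PSU_n(q)`.** -/
theorem psu_row {F : Type*} [Field F] [Fintype F] {n p q : ℕ} [hp : Fact p.Prime] (hp2 : p ≠ 2)
    (hF : Fintype.card F = q ^ 2) (hn0 : 0 < n) (hn : p ∣ n) (hq : p ∣ q + 1) :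
    (∃ P : Subgroup (Cfsg.PSU n F q), IsPGroup p P ∧ ∃ a ∈ P, ∃ b ∈ P, a * b ≠ b * a) ∨
    ¬ p ^ 3 ∣ Nat.card (Cfsg.PSU n F q) := by
  have hq0 : 1 < q := by
    have h1 := Fintype.one_lt_card (α := F)
    rw [hF] at h1
    by_contra hc
    interval_cases q <;> simp at h1
  by_cases h9 : n = 3 → 9 ∣ q + 1
  · left
    have hdvd : q + 1 ∣ Fintype.card F - 1 := by
      rw [hF]
      refine ⟨q - 1, ?_⟩
      obtain ⟨k, rfl⟩ : ∃ k, q = k + 1 := ⟨q - 1, by omega⟩
      rw [Nat.add_sub_cancel]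
      have : (k + 1) ^ 2 = (k + 1 + 1) * k + 1 := by ring
      omega
    refine nonab_row (G := Cfsg.SU n F q) (r := q + 1) hp2 (Nat.le_of_dvd hn0 hn)
      hdvd hq (Cfsg.SU n F q).subtype (Subgroup.subtype_injective _) ?_ ?_ h9
    · intro t ht htp
      refine ⟨⟨⟨diagonal (fun i => (t i : F)), ?_⟩, ?_⟩, rfl⟩
      · rw [det_diagonal, ← Units.coe_prod, htp, Units.val_one]
      · intro u v
        show Cfsg.hermForm n F q (diagonal (fun i => (t i : F)) *ᵥ u) (diagonal (fun i => (t i : F)) *ᵥ v) =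
          Cfsg.hermForm n F q u v
        unfold Cfsg.hermForm
        refine Finset.sum_congr rfl fun i _ => ?_
        rw [mulVec_diagonal, mulVec_diagonal, mul_pow]
        have h1 : (t i : F) ^ (q + 1) = 1 := by
          rw [← Units.val_pow_eq_pow_val, ht i, Units.val_one]
        rw [pow_succ] at h1
        linear_combination (u i * v i ^ q) * h1
    · intro σ hσ
      refine ⟨⟨⟨σ.permMatrix F, by rw [det_permutation, hσ]; simp⟩, ?_⟩, rfl⟩
      intro u v
      show Cfsg.hermForm n F q (σ.permMatrix F *ᵥ u) (σ.permMatrix F *ᵥ v) = Cfsg.hermForm n F q u v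
      rw [permMatrix_mulVec, permMatrix_mulVec]
      unfold Cfsg.hermForm
      exact Equiv.sum_comp σ (fun i => u i * v i ^ q)
  · right
    push Not at h9
    obtain ⟨hn3, h9⟩ := h9
    have hp3 : p = 3 := by
      have h2 : p ∣ 3 := hn3 ▸ hn
      exact (Nat.prime_dvd_prime_iff_eq hp.out Nat.prime_three).1 h2
    subst hp3 hn3
    intro hd
    have h := Cfsg.Agent.S0280.result (F := F) hF 3 (by norm_num)
    obtain ⟨a, ha⟩ := hq
    have ha3 : ¬ 3 ∣ a := by
      intro h3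
      apply h9
      rw [ha, show (9 : ℕ) = 3 * 3 from rfl]
      exact Nat.mul_dvd_mul_left 3 h3
    have ha1 : 1 ≤ a := by omega
    obtain ⟨k, rfl⟩ : ∃ k, a = k + 1 := ⟨a - 1, by omega⟩
    have hqa : q = 3 * k + 2 := by omega
    have hg : Nat.gcd 3 (q + 1) = 3 := by
      rw [ha]; exact Nat.gcd_eq_left (Dvd.intro _ rfl)
    rw [hg, ha, hqa] at h
    obtain ⟨b, hb⟩ := hd
    rw [hqa] at hb
    rw [hb] at h
    simp only [Finset.prod_range_succ, Finset.prod_range_zero, one_mul] at h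
    rw [if_pos (by decide), if_neg (by decide), if_pos (by decide)] at h
    norm_num at h
    have e1 : 3 * k + 2 + 1 = 3 * (k + 1) := by ring
    have e2 : (3 * k + 2) ^ 2 - 1 = 3 * ((k + 1) * (3 * k + 1)) := by
      have : (3 * k + 2) ^ 2 = 3 * ((k + 1) * (3 * k + 1)) + 1 := by ring
      omega
    have e3 : (3 * k + 2) ^ 3 + 1 = 9 * ((k + 1) * (3 * k ^ 2 + 3 * k + 1)) := by ring
    rw [e1, e2, e3] at h
    have h2 : 81 * (3 * ((k + 1) * b)) = 81 * ((3 * k + 2) ^ 3 * (k + 1) *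
        ((k + 1) * (3 * k + 1)) * ((k + 1) * (3 * k ^ 2 + 3 * k + 1))) := by
      linear_combination h
    have h3 := Nat.eq_of_mul_eq_mul_left (by norm_num : 0 < 81) h2
    have h4 : 3 ∣ (3 * k + 2) ^ 3 * (k + 1) *
        ((k + 1) * (3 * k + 1)) * ((k + 1) * (3 * k ^ 2 + 3 * k + 1)) :=
      Dvd.intro _ h3
    have n1 : ¬ 3 ∣ 3 * k + 1 := by omega
    have n2 : ¬ 3 ∣ 3 * k + 2 := by omega
    have n3 : ¬ 3 ∣ 3 * k ^ 2 + 3 * k + 1 := by omega
    simp only [Nat.Prime.dvd_mul Nat.prime_three] at h4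
    have n4 : ¬ 3 ∣ (3 * k + 2) ^ 3 := fun h => n2 (Nat.prime_three.dvd_of_dvd_pow h)
    tauto

end Cfsg.Agent.H601.PslPsuRow
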